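import Mathlib
import Cfsg.Prelude.Def_Characters
import Cfsg.Agent.CharLib.IndMore
import Cfsg.Agent.CharLib.Sub
import Cfsg.Agent.CharLib.L.AbelianIndex
import Cfsg.Agent.H6.LinChar

set_option autoImplicit false

namespace Cfsg.Agent.CharLib.H2

open Module Representation Cfsg Cfsg.Agent.CharLib
open scoped ComplexConjugate

universe u v

open Classical in
/-- `|X|` on the generators of `X`, zero elsewhere. -/
noncomputable def genFun (X : Type u) [Group X] : X → ℂ :=
  fun a => if Subgroup.zpowers a = ⊤ then (Nat.card X : ℂ) else 0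

theorem zpowers_mk_eq_top_iff {G : Type u} [Group G] (A : Subgroup G) (y : G) (hy : y ∈ A) :
    Subgroup.zpowers (⟨y, hy⟩ : A) = ⊤ ↔ Subgroup.zpowers y = A := by
  have h3 := MonoidHom.map_zpowers A.subtype ⟨y, hy⟩
  simp only [Subgroup.subtype_apply] at h3
  constructor
  · intro h
    rw [h, ← MonoidHom.range_eq_map, Subgroup.range_subtype] at h3
    exact h3.symm
  · intro h
    apply Subgroup.map_injective A.subtype_injective
    rw [h3, h, ← MonoidHom.range_eq_map, Subgroup.range_subtype]

open Classical in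
theorem extendByZero_genFun {G : Type u} [Group G] (A : Subgroup G) (y : G) :
    extendByZero A (genFun A) y = if Subgroup.zpowers y = A then (Nat.card A : ℂ) else 0 := by
  by_cases hy : y ∈ A
  · rw [extendByZero_of_mem A _ hy, genFun]
    simp only [zpowers_mk_eq_top_iff A y hy]
  · rw [extendByZero_of_not_mem A _ hy, if_neg]
    intro h
    exact hy (h ▸ Subgroup.mem_zpowers y)

theorem sum_indFun_genFun {G : Type u} [Group G] [Fintype G] [Fintype (Subgroup G)] :
    ∑ A : Subgroup G, indFun A (genFun A) = fun _ => (Nat.card G : ℂ) := by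
  classical
  funext g
  rw [Finset.sum_apply]
  simp only [indFun_apply, extendByZero_genFun, Finset.mul_sum]
  rw [Finset.sum_comm]
  have h1 : ∀ x : G, ∑ A : Subgroup G, (Nat.card A : ℂ)⁻¹ *
      (if Subgroup.zpowers (x⁻¹ * g * x) = A then (Nat.card A : ℂ) else 0) = 1 := by
    intro x
    rw [Finset.sum_eq_single (Subgroup.zpowers (x⁻¹ * g * x))]
    · rw [if_pos rfl]
      exact inv_mul_cancel₀ (by exact_mod_cast Nat.card_pos.ne')
    · intro A _ hA
      rw [if_neg (Ne.symm hA), mul_zero]
    · intro h; exact absurd (Finset.mem_univ _) h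
  simp only [h1]
  rw [Finset.sum_const, Finset.card_univ, nsmul_eq_mul, mul_one, Nat.card_eq_fintype_card]

theorem isCyclic_of_mulEquiv' (A B : Type u) [Group A] [Group B] (e : A ≃* B) (h : IsCyclic A) :
    IsCyclic B := isCyclic_of_surjective e.toMonoidHom e.surjective

theorem isClassFunction_genFun (X : Type u) [Group X] : IsClassFunction X (genFun X) := by
  classical
  intro g h
  unfold genFun
  have h1 : Subgroup.zpowers (h * g * h⁻¹) = ⊤ ↔ Subgroup.zpowers g = ⊤ := by
    have h3 := MonoidHom.map_zpowers (MulAut.conj h).toMonoidHom g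
    simp only [MulEquiv.coe_toMonoidHom, MulAut.conj_apply] at h3
    rw [← h3]
    constructor
    · intro h4
      apply Subgroup.map_injective (f := (MulAut.conj h).toMonoidHom) (MulAut.conj h).injective
      rw [h4, ← MonoidHom.range_eq_map]
      exact (MonoidHom.range_eq_top.mpr (MulAut.conj h).surjective).symm
    · intro h4
      rw [h4, ← MonoidHom.range_eq_map]
      exact MonoidHom.range_eq_top.mpr (MulAut.conj h).surjective
  simp only [h1]

theorem one_mem_IndSpan_of_self {P : ∀ (E : Type u) [Group E], Prop}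
    (hP : ∀ (A B : Type u) [Group A] [Group B], (A ≃* B) → P A → P B)
    {X : Type u} [Group X] [Fintype X] (h : P X) : (fun _ => 1 : X → ℂ) ∈ IndSpan P X := by
  have h1 : (fun _ => 1 : X → ℂ) = indFun (⊤ : Subgroup X) (fun _ => 1) := by
    funext g
    rw [indFun_top _ (fun _ _ => rfl)]
  rw [h1]
  exact indFun_mem_IndSpan (hP _ _ Subgroup.topEquiv.symm h) (isCharacter_of_irr isIrrCharacter_one)

theorem genFun_mem_IndSpan (n : ℕ) : ∀ (X : Type u) [Group X] [Fintype X], Nat.card X = n →
    genFun X ∈ IndSpan (fun E _ => IsCyclic E) X := by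
  induction n using Nat.strong_induction_on with
  | _ n ih =>
  intro X _ _ hn
  classical
  by_cases hcyc : IsCyclic X
  · letI : Fintype (Subgroup X) := Fintype.ofFinite _
    have hsum := sum_indFun_genFun (G := X)
    rw [← Finset.add_sum_erase Finset.univ _ (Finset.mem_univ (⊤ : Subgroup X))] at hsum
    have htop : indFun (⊤ : Subgroup X) (genFun (⊤ : Subgroup X)) = genFun X := by
      funext g
      rw [indFun_top _ (isClassFunction_genFun _)]
      unfold genFun
      simp only [zpowers_mk_eq_top_iff, Subgroup.card_top]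
    rw [htop] at hsum
    rw [eq_sub_of_add_eq hsum]
    apply AddSubgroup.sub_mem
    · have h1 := one_mem_IndSpan_of_self (P := fun E _ => IsCyclic E) isCyclic_of_mulEquiv' hcyc
      have h2 : (fun _ => (Nat.card X : ℂ) : X → ℂ) = Nat.card X • (fun _ => 1 : X → ℂ) := by
        funext g; simp
      rw [h2]
      exact AddSubgroup.nsmul_mem _ h1 _
    · apply AddSubgroup.sum_mem
      intro A hA
      letI : Fintype A := Fintype.ofFinite _
      have hlt : Nat.card A < n := by
        rw [← hn]
        exact lt_of_le_of_ne (Subgroup.card_le_card_group _)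
          (fun h => (Finset.ne_of_mem_erase hA) (Subgroup.eq_top_of_card_eq _ h))
      exact indFun_mem_IndSpan_of_mem (P := fun E _ => IsCyclic E) isCyclic_of_mulEquiv' A
        (ih _ hlt A rfl)
  · have h0 : genFun X = 0 := by
      funext a
      unfold genFun
      rw [if_neg]
      · rfl
      · intro h
        exact hcyc ⟨a, fun x => (h ▸ Subgroup.mem_top x : x ∈ Subgroup.zpowers a)⟩
    rw [h0]
    exact AddSubgroup.zero_mem _

/-- Artin's induction theorem for the principal character. -/
theorem card_mem_IndSpan_isCyclic {G : Type u} [Group G] [Fintype G] :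
    (fun _ => (Nat.card G : ℂ) : G → ℂ) ∈ IndSpan (fun E _ => IsCyclic E) G := by
  classical
  letI : Fintype (Subgroup G) := Fintype.ofFinite _
  rw [← sum_indFun_genFun]
  apply AddSubgroup.sum_mem
  intro A _
  letI : Fintype A := Fintype.ofFinite _
  exact indFun_mem_IndSpan_of_mem (P := fun E _ => IsCyclic E) isCyclic_of_mulEquiv' A
    (genFun_mem_IndSpan _ A rfl)

section lin

variable {G : Type u} [Group G] [Fintype G]

theorem list_sum_map_neg'' {α : Type*} (l : List α) (F : α → G → ℂ) :
    (l.map fun t => - F t).sum = - (l.map F).sum := by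
  induction l with
  | nil => simp
  | cons a l ih => simp only [List.map_cons, List.sum_cons, ih]; abel

/-- list form for spans of functions induced from linear characters -/
theorem linClosure_exists_list (P : Subgroup G → Prop) {f : G → ℂ}
    (hf : f ∈ AddSubgroup.closure {f : G → ℂ | ∃ (E : Subgroup G) (lam : E →* ℂˣ), P E ∧
      f = indFun E (fun e => (lam e : ℂ))}) :
    ∃ l : List ((E : Subgroup G) × ((E →* ℂˣ) × ℤ)), (∀ t ∈ l, P t.1) ∧
      f = (l.map fun t => (t.2.2 : ℂ) • indFun t.1 (fun e => (t.2.1 e : ℂ))).sum := by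
  induction hf using AddSubgroup.closure_induction with
  | mem x hx =>
    obtain ⟨E, φ, hE, rfl⟩ := hx
    refine ⟨[⟨E, φ, 1⟩], ?_, ?_⟩
    · intro t ht
      rw [List.mem_singleton] at ht
      subst ht
      exact hE
    · simp
  | zero => exact ⟨[], by simp, by simp⟩
  | add x y _ _ hx hy =>
    obtain ⟨l₁, h₁, rfl⟩ := hx
    obtain ⟨l₂, h₂, rfl⟩ := hy
    refine ⟨l₁ ++ l₂, ?_, ?_⟩
    · intro t ht
      rcases List.mem_append.mp ht with h | h
      · exact h₁ t h
      · exact h₂ t h
    · rw [List.map_append, List.sum_append]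
  | neg x _ hx =>
    obtain ⟨l, h, rfl⟩ := hx
    refine ⟨l.map (fun t => ⟨t.1, t.2.1, -t.2.2⟩), ?_, ?_⟩
    · intro t ht
      obtain ⟨s, hs, rfl⟩ := List.mem_map.mp ht
      exact h s hs
    · rw [← list_sum_map_neg'', List.map_map]
      congr 1
      apply List.map_congr_left
      intro t _
      simp

theorem IndSpan_isCyclic_le :
    IndSpan (fun E _ => IsCyclic E) G ≤ AddSubgroup.closure {f : G → ℂ | ∃ (E : Subgroup G)
      (lam : E →* ℂˣ), IsCyclic E ∧ f = indFun E (fun e => (lam e : ℂ))} := by
  unfold IndSpan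
  rw [AddSubgroup.closure_le]
  rintro f ⟨E, φ, hE, hφ, rfl⟩
  letI : Fintype E := Fintype.ofFinite _
  obtain ⟨m, hm, -⟩ := exists_mult hφ
  rw [hm, indFun_finset_sum]
  apply AddSubgroup.sum_mem
  intro ψ _
  rw [indFun_smul, Nat.cast_smul_eq_nsmul ℂ]
  apply AddSubgroup.nsmul_mem
  have hcomm : ∀ a b : E, a * b = b * a := by
    obtain ⟨g, hg⟩ := hE.exists_generator
    intro a b
    obtain ⟨i, rfl⟩ := Subgroup.mem_zpowers_iff.mp (hg a)
    obtain ⟨j, rfl⟩ := Subgroup.mem_zpowers_iff.mp (hg b)
    rw [← zpow_add, ← zpow_add, add_comm]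
  have h1 := L.irr_apply_one_of_comm hcomm ψ
  apply AddSubgroup.subset_closure
  exact ⟨E, Cfsg.Agent.H6.linCharHom ψ ⟨isCharacter_of_irr ψ.2, h1⟩, hE, rfl⟩

/-- Artin's induction theorem. -/
theorem artin_induction {χ : G → ℂ} (hχ : IsCharacter G χ) :
    ∃ l : List ((A : Subgroup G) × ((A →* ℂˣ) × ℤ)), (∀ t ∈ l, IsCyclic t.1) ∧
      (Nat.card G : ℂ) • χ =
        (l.map fun t => (t.2.2 : ℂ) • indFun t.1 (fun a => (t.2.1 a : ℂ))).sum := by
  apply linClosure_exists_list (fun A => IsCyclic A)
  apply IndSpan_isCyclic_le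
  have h := IndSpan_mul_char card_mem_IndSpan_isCyclic hχ
  have h2 : (fun _ => (Nat.card G : ℂ) : G → ℂ) * χ = (Nat.card G : ℂ) • χ := by
    funext g; simp
  rwa [h2] at h

end lin

end Cfsg.Agent.CharLib.H2
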