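import Mathlib
import Cfsg.Prelude.Def_Characters
import Cfsg.Agent.CharLib.BrauerInd
import Cfsg.Agent.CharLib.ElemPow

set_option autoImplicit false

namespace Cfsg.Agent.CharLib.H2

open Module Representation Cfsg Cfsg.Agent.CharLib
open scoped ComplexConjugate

universe u v

theorem indFun_one_of_normal {E : Type u} [Group E] [Fintype E] (B : Subgroup E) [hB : B.Normal]
    (x : E) [Decidable (x ∈ B)] : indFun B (fun _ => 1) x = if x ∈ B then (B.index : ℂ) else 0 := by
  rw [indFun_apply]
  have h1 : ∀ g : E, extendByZero B (fun _ => (1 : ℂ)) (g⁻¹ * x * g) = if x ∈ B then 1 else 0 := by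
    intro g
    have hiff : g⁻¹ * x * g ∈ B ↔ x ∈ B := by
      constructor
      · intro h
        have := hB.conj_mem _ h g
        simpa [mul_assoc] using this
      · intro h
        have := hB.conj_mem _ h g⁻¹
        simpa using this
    by_cases hx : x ∈ B
    · rw [extendByZero_of_mem B _ (hiff.mpr hx), if_pos hx]
    · rw [extendByZero_of_not_mem B _ (fun h => hx (hiff.mp h)), if_neg hx]
  simp only [h1]
  rw [Finset.sum_const, Finset.card_univ, nsmul_eq_mul, ← Nat.card_eq_fintype_card]
  have h2 : (Nat.card E : ℂ) = (Nat.card B : ℂ) * (B.index : ℂ) := by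
    exact_mod_cast (Subgroup.card_mul_index B).symm
  have h3 : (Nat.card B : ℂ) ≠ 0 := by exact_mod_cast Nat.card_pos.ne'
  split_ifs
  · rw [h2]; field_simp
  · simp

/-- `|G|_p χ` restricted to `p`-regular elements is a generalized character. -/
theorem isGeneralizedCharacter_pReg {G : Type u} [Group G] [Fintype G] (p : ℕ) [hp : Fact p.Prime]
    {χ : G → ℂ} (hχ : IsCharacter G χ) :
    IsGeneralizedCharacter G (fun x : G => if p ∣ orderOf x then 0
      else ((p ^ (Nat.card G).factorization p : ℕ) : ℂ) * χ x) := by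
  have hcf := isClassFunction_of_char hχ
  apply brauer_characterization
  · intro g h
    have h1 : orderOf (h * g * h⁻¹) = orderOf g := (MulAut.conj h).orderOf_eq g
    simp only [h1, hcf g h]
  intro E r hr hE
  letI : Fintype E := Fintype.ofFinite _
  set a := (Nat.card G).factorization p with ha
  set m := p ^ a with hm
  set n := Nat.card G / p ^ a with hn
  have hG0 : Nat.card G ≠ 0 := Nat.card_pos.ne'
  have hmn : m * n = Nat.card G := Nat.ordProj_mul_ordCompl_eq_self (Nat.card G) p
  have hcop : Nat.Coprime m n := Nat.Coprime.pow_left a (Nat.coprime_ordCompl hp.out hG0)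
  obtain ⟨e, hen, hem⟩ := exists_crt_exponent m n hcop
  obtain ⟨f, hf⟩ := exists_zpow_hom_of_isElementary hr hE m n hcop
    (hmn ▸ Subgroup.card_subgroup_dvd_card E) e hen hem
  have hmem : ∀ x : E, x ∈ f.ker ↔ ¬ p ∣ orderOf (x : G) := by
    intro x
    rw [MonoidHom.mem_ker, hf, ← orderOf_dvd_iff_zpow_eq_one, Subgroup.orderOf_coe]
    constructor
    · intro h1 h2
      have h3 : (p : ℤ) ∣ e := (Int.natCast_dvd_natCast.mpr h2).trans h1
      have h4 : p ∣ Nat.card G := h2.trans ((orderOf_dvd_natCard x).trans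
        (Subgroup.card_subgroup_dvd_card E))
      have h5 : a ≠ 0 := by
        rw [ha]
        exact (Nat.Prime.factorization_pos_of_dvd hp.out hG0 h4).ne'
      have h6 : (p : ℤ) ∣ 1 - e := (Int.natCast_dvd_natCast.mpr (dvd_pow_self p h5)).trans hem
      have h7 : (p : ℤ) ∣ 1 := by
        have := dvd_add h6 h3
        simpa using this
      have h8 : p ∣ 1 := by exact_mod_cast h7
      exact hp.out.one_lt.ne' (Nat.dvd_one.mp h8)
    · intro h1
      have h2 : orderOf x ∣ m * n := hmn ▸ ((orderOf_dvd_natCard x).trans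
        (Subgroup.card_subgroup_dvd_card E))
      have h3 : Nat.Coprime (orderOf x) m :=
        Nat.Coprime.pow_right a ((Nat.Prime.coprime_iff_not_dvd hp.out).mpr h1).symm
      exact (Int.natCast_dvd_natCast.mpr (h3.dvd_of_dvd_mul_left h2)).trans hen
  have hpg : IsPGroup p f.range := by
    rintro ⟨y, x, rfl⟩
    refine ⟨a, ?_⟩
    apply Subtype.ext
    simp only [Subgroup.coe_pow, Subgroup.coe_one]
    rw [hf, ← zpow_natCast, ← zpow_mul, ← orderOf_dvd_iff_zpow_eq_one]
    have h2 : orderOf x ∣ m * n := hmn ▸ ((orderOf_dvd_natCard x).trans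
      (Subgroup.card_subgroup_dvd_card E))
    refine (Int.natCast_dvd_natCast.mpr h2).trans ?_
    push_cast
    rw [mul_comm]
    exact mul_dvd_mul hen (by rw [hm]; push_cast; exact dvd_rfl)
  obtain ⟨c, hc⟩ := IsPGroup.iff_card.mp hpg
  have hidx : f.ker.index = p ^ c := by rw [Subgroup.index_ker, hc]
  have hca : c ≤ a := by
    rw [ha]
    apply (Nat.Prime.pow_dvd_iff_le_factorization hp.out hG0).mp
    rw [← hidx]
    exact (Subgroup.index_dvd_card _).trans (Subgroup.card_subgroup_dvd_card E)
  have hchar : IsCharacter E (p ^ (a - c) • (indFun f.ker (fun _ => 1) * fun x : E => χ x)) :=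
    isCharacter_nsmul (isCharacter_mul (isCharacter_indFun _ (isCharacter_of_irr isIrrCharacter_one))
      (isCharacter_restrict hχ E)) _
  refine ⟨_, 0, hchar, isCharacter_zero, ?_⟩
  funext x
  classical
  simp only [Pi.sub_apply, Pi.zero_apply, sub_zero, Pi.smul_apply, Pi.mul_apply]
  rw [indFun_one_of_normal, hidx]
  by_cases hx : p ∣ orderOf (x : G)
  · rw [if_pos hx, if_neg (fun h => (hmem x).mp h hx)]
    simp
  · rw [if_neg hx, if_pos ((hmem x).mpr hx)]
    rw [nsmul_eq_mul, ← mul_assoc]
    congr 1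
    rw [hm]
    push_cast
    rw [← pow_add, Nat.sub_add_cancel hca]

end Cfsg.Agent.CharLib.H2
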