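import Mathlib
import Cfsg.Prelude.Def_Characters
import Cfsg.Agent.CharLib.IndMore
import Cfsg.Agent.CharLib.Sub
import Cfsg.Agent.CharLib.Orth

set_option autoImplicit false

namespace Cfsg.Agent.CharLib.H2

open Module Representation Cfsg Cfsg.Agent.CharLib
open scoped ComplexConjugate commutatorElement

universe u v

variable {G : Type u} [Group G] [Fintype G]

/-- if `(1_H)^G g = (1_H)^G 1` then `g ∈ H` -/
theorem mem_of_indFun_one_eq (H : Subgroup G) {g : G}
    (h : indFun H (fun _ => 1) g = indFun H (fun _ => 1) 1) : g ∈ H := by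
  classical
  rw [indFun_apply, indFun_apply] at h
  have hH0 : (Nat.card H : ℂ)⁻¹ ≠ 0 := inv_ne_zero (by exact_mod_cast Nat.card_pos.ne')
  have h1 := mul_left_cancel₀ hH0 h
  have e1 : ∀ y : G, extendByZero H (fun _ => (1 : ℂ)) y = if y ∈ H then 1 else 0 := by
    intro y
    split_ifs with hy
    · exact extendByZero_of_mem H _ hy
    · exact extendByZero_of_not_mem H _ hy
  simp only [e1, mul_one, inv_mul_cancel, H.one_mem, if_true] at h1
  rw [Finset.sum_ite, Finset.sum_const_zero, add_zero, Finset.sum_const, Finset.sum_const,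
    nsmul_eq_mul, nsmul_eq_mul, mul_one, mul_one] at h1
  have h2 : (Finset.univ.filter (fun x : G => x⁻¹ * g * x ∈ H)).card =
      (Finset.univ : Finset G).card := by exact_mod_cast h1
  have h3 := Finset.eq_of_subset_of_card_le (Finset.filter_subset _ _) h2.ge
  have h4 : (1 : G) ∈ Finset.univ.filter (fun x : G => x⁻¹ * g * x ∈ H) := by
    rw [h3]; exact Finset.mem_univ _
  simpa using h4

theorem taketa_aux (hM : ∀ χ : G → ℂ, IsIrrCharacter G χ →
      ∃ (H : Subgroup G) (lam : H →* ℂˣ), χ = indFun H (fun h => (lam h : ℂ))) (d : ℕ) :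
    ∀ χ : IrrCharacter G, (χ : G → ℂ) 1 = d → ∀ g ∈ derivedSeries G d,
      (χ : G → ℂ) g = (χ : G → ℂ) 1 := by
  classical
  induction d using Nat.strong_induction_on with
  | _ d ih =>
  intro χ hd g hg
  obtain ⟨H, lam, hlam⟩ := hM χ χ.2
  letI : Fintype H := Fintype.ofFinite _
  have hidx : H.index = d := by
    have := indFun_apply_one H (fun h => (lam h : ℂ))
    rw [← hlam, hd] at this
    simp only [map_one, Units.val_one, mul_one] at this
    exact_mod_cast this.symm
  obtain ⟨k, rfl⟩ : ∃ k, d = k + 1 := by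
    refine ⟨d - 1, ?_⟩
    have : d ≠ 0 := by
      rintro rfl
      exact irr_apply_one_ne_zero χ (by simpa using hd)
    omega
  -- `G^(k) ≤ H`
  have hS : derivedSeries G k ≤ H := by
    rcases Nat.eq_zero_or_pos k with rfl | hk
    · have htop : H = ⊤ := Subgroup.index_eq_one.mp (by simpa using hidx)
      rw [htop]
      exact le_top
    intro y hy
    apply mem_of_indFun_one_eq
    have hπ : IsCharacter G (indFun H (fun _ => 1)) :=
      isCharacter_indFun H (isCharacter_of_irr isIrrCharacter_one)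
    obtain ⟨m, hm, hm2⟩ := exists_mult hπ
    have hone : m ⟨fun _ => 1, isIrrCharacter_one⟩ = 1 := by
      have := hm2 ⟨fun _ => 1, isIrrCharacter_one⟩
      rw [frobenius_reciprocity H _
        (isClassFunction_of_char (isCharacter_of_irr isIrrCharacter_one))] at this
      have h2 : classInner (fun _ : H => (1 : ℂ)) (fun _ : H => (1 : ℂ)) = 1 :=
        classInner_irr_self isIrrCharacter_one
      rw [h2] at this
      exact_mod_cast this.symm
    choose deg hdeg0 hdeg using fun ψ : IrrCharacter G => irr_apply_one_nat ψ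
    have hsum : ∑ ψ : IrrCharacter G, m ψ * deg ψ = k + 1 := by
      have h1 := congrFun hm 1
      rw [indFun_apply_one, hidx] at h1
      simp only [Finset.sum_apply, Pi.smul_apply, smul_eq_mul, hdeg, mul_one] at h1
      exact_mod_cast h1.symm
    have hdegle : ∀ ψ : IrrCharacter G, m ψ ≠ 0 → deg ψ ≤ k := by
      intro ψ hψ
      by_cases h1 : ψ = ⟨fun _ => 1, isIrrCharacter_one⟩
      · have : deg ψ = 1 := by
          have h5 := hdeg ψ
          have h6 : (ψ : G → ℂ) 1 = 1 := by rw [h1]
          rw [h6] at h5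
          exact_mod_cast h5.symm
        omega
      · have h2 : ∑ φ ∈ ({⟨fun _ => 1, isIrrCharacter_one⟩, ψ} : Finset (IrrCharacter G)),
            m φ * deg φ ≤ ∑ φ : IrrCharacter G, m φ * deg φ :=
          Finset.sum_le_sum_of_subset (Finset.subset_univ _)
        rw [Finset.sum_pair (Ne.symm h1), hone, hsum] at h2
        have h3 := hdeg0 ⟨fun _ => 1, isIrrCharacter_one⟩
        have h4 : deg ψ ≤ m ψ * deg ψ := Nat.le_mul_of_pos_left _ (Nat.pos_of_ne_zero hψ)
        omega
    rw [hm]
    simp only [Finset.sum_apply, Pi.smul_apply]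
    refine Finset.sum_congr rfl fun ψ _ => ?_
    by_cases hψ : m ψ = 0
    · rw [hψ]; simp
    · congr 1
      have hle := hdegle ψ hψ
      exact ih (deg ψ) (by omega) ψ (hdeg ψ) y (derivedSeries_antitone G hle hy)
  -- `G^(k+1) ≤ ker λ`
  have hker : derivedSeries G (k + 1) ≤ lam.ker.map H.subtype := by
    rw [derivedSeries_succ, Subgroup.commutator_le]
    intro a ha b hb
    refine ⟨⁅(⟨a, hS ha⟩ : H), ⟨b, hS hb⟩⁆, ?_, rfl⟩
    change lam _ = 1
    rw [map_commutatorElement]
    exact commutatorElement_eq_one_iff_mul_comm.mpr (mul_comm _ _)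
  have hval : ∀ y ∈ derivedSeries G (k + 1),
      extendByZero H (fun h => (lam h : ℂ)) y = 1 := by
    intro y hy
    obtain ⟨z, hz, rfl⟩ := hker hy
    rw [Subgroup.subtype_apply, extendByZero_coe]
    have : lam z = 1 := hz
    rw [this]; rfl
  have hn := derivedSeries_normal G (k + 1)
  rw [hlam, indFun_apply, indFun_apply]
  congr 1
  refine Finset.sum_congr rfl fun x _ => ?_
  rw [hval _ (by have := hn.conj_mem g hg x⁻¹; simpa using this),
    hval _ (by simp)]

/-- Taketa's theorem: M-groups are solvable. -/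
theorem taketa (hM : ∀ χ : G → ℂ, IsIrrCharacter G χ →
      ∃ (H : Subgroup G) (lam : H →* ℂˣ), χ = indFun H (fun h => (lam h : ℂ))) :
    Group.IsSolvable G := by
  classical
  choose deg hdeg0 hdeg using fun ψ : IrrCharacter G => irr_apply_one_nat ψ
  refine ⟨⟨∑ ψ : IrrCharacter G, deg ψ, ?_⟩⟩
  rw [eq_bot_iff]
  intro g hg
  rw [Subgroup.mem_bot]
  by_contra hne
  have e := sum_irr_one_mul g
  rw [if_neg hne] at e
  have e2 : ∑ χ : IrrCharacter G, (χ : G → ℂ) 1 * (χ : G → ℂ) g = (Nat.card G : ℂ) := by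
    rw [← sum_irr_sq]
    refine Finset.sum_congr rfl fun χ _ => ?_
    rw [taketa_aux hM (deg χ) χ (hdeg χ) g (derivedSeries_antitone G
      (Finset.single_le_sum (f := deg) (fun _ _ => Nat.zero_le _) (Finset.mem_univ χ)) hg), sq]
  rw [e] at e2
  exact card_ne_zero_complex e2.symm

end Cfsg.Agent.CharLib.H2
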